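import Cfsg.Agent.Lib.Helper40.CoxeterEnum

/-! Certificate data for the Coxeter group of type B2 (generated). -/

set_option autoImplicit false

namespace Cfsg.Agent.Lib.Helper40.B2

/-- action of the simple reflections on the roots, one packed row per reflection -/
def tab : List ℕ := [
  0x704020601050300,
  0x506070304000102]

/-- the negation map on roots (packed) -/
def negT : ℕ :=
  0x1020304050607

/-- level 0 of the stabiliser chain -/
def lev0 : Level where
  I := [0, 1]
  J := [0]
  b := 7
  O := [
    7, 5, 2, 0]
  gen := 0x100001
  par := 0x70000050002
  dep := 0x10000020003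
  rank := 0x1
  partner := 0x1

/-- level 1 of the stabiliser chain -/
def lev1 : Level where
  I := [0]
  J := []
  b := 5
  O := [
    5, 2]
  gen := 0x0
  par := 0x50000
  dep := 0x10000
  rank := 0x0
  partner := 0x0

/-- the stabiliser chain -/
def levels : List Level := [lev0, lev1]

theorem tab_ok : tabOK (CoxeterMatrix.B 2) 8 tab = true := by decide +kernel

theorem chain_ok :
    chainOK (actT 2 8 tab) (mN (CoxeterMatrix.B 2)) levels (List.range 2) = true := by
  decide +kernel

end Cfsg.Agent.Lib.Helper40.B2
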