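import Cfsg.Agent.Lib.Helper40.CoxeterEnum

/-! Certificate data for the Coxeter group of type G2 (generated). -/

set_option autoImplicit false

namespace Cfsg.Agent.Lib.Helper40.G2

/-- action of the simple reflections on the roots, one packed row per reflection -/
def tab : List ℕ := [
  0xa0b09060408030705020001,
  0xb0708090a05060102030400]

/-- the negation map on roots (packed) -/
def negT : ℕ :=
  0x102030405060708090a0b

/-- level 0 of the stabiliser chain -/
def lev0 : Level where
  I := [0, 1]
  J := [1]
  b := 11
  O := [
    11, 10, 7, 4, 1, 0]
  gen := 0x10000010
  par := 0xb00000a00000700000401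
  dep := 0x100000200000300000405
  rank := 0x10000
  partner := 0x0

/-- level 1 of the stabiliser chain -/
def lev1 : Level where
  I := [1]
  J := []
  b := 10
  O := [
    10, 7]
  gen := 0x10000000
  par := 0xa00000000000000
  dep := 0x100000000000000
  rank := 0x0
  partner := 0x0

/-- the stabiliser chain -/
def levels : List Level := [lev0, lev1]

theorem tab_ok : tabOK CoxeterMatrix.G₂ 12 tab = true := by decide +kernel

theorem chain_ok :
    chainOK (actT 2 12 tab) (mN CoxeterMatrix.G₂) levels (List.range 2) = true := by
  decide +kernel

end Cfsg.Agent.Lib.Helper40.G2
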