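import Cfsg.Agent.Lib.Helper40.CoxeterWords

/-!
# Sifting along a verified chain, and the centre of a presented Coxeter group
-/

set_option autoImplicit false

namespace Cfsg.Agent.Lib.Helper40

/-- sifting of prescribed base images through the chain -/
def siftOK (act : ℕ → ℕ → ℕ) : List Level → (ℕ → ℕ) → Bool
  | [], _ => true
  | L :: rest, f =>
    L.O.contains (f L.b) && siftOK act rest (fun y => evalW act (L.word (f L.b)).reverse (f y))

section group

variable {G : Type*} [Group G] (s : ℕ → G) (act : ℕ → ℕ → ℕ) (m : ℕ → ℕ → ℕ)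
variable (hinv : ∀ i, s i * s i = 1) (hrel : ∀ i j, (s i * s j) ^ m i j = 1)

include hinv in
theorem wp_reverse' (w : List ℕ) : wp s w.reverse = (wp s w)⁻¹ := by
  induction w with
  | nil => simp
  | cons i w ih =>
    rw [List.reverse_cons, wp_append, ih, wp_cons, wp_cons, wp_nil, mul_one, mul_inv_rev]
    congr 1
    exact (inv_eq_of_mul_eq_one_right (hinv i)).symm

variable (ρ : G →* Equiv.Perm ℕ) (hρ : ∀ i x, ρ (s i) x = act i x)

include hinv hrel hρ in
theorem sift_ok : ∀ (Ls : List Level) (I : List ℕ), chainOK act m Ls I = true →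
    ∀ g ∈ gsub s I, ∀ f : ℕ → ℕ, (∀ L ∈ Ls, ρ g L.b = f L.b) → siftOK act Ls f = true
  | [], _, _, _, _, _, _ => rfl
  | L :: rest, I, h, g, hg, f, hf => by
    simp only [chainOK, Bool.and_eq_true, beq_iff_eq] at h
    obtain ⟨⟨rfl, h1⟩, h2⟩ := h
    have h3 := level_cover' s act m L hinv hrel ρ hρ h1 g hg
    rw [hf L (by simp)] at h3
    simp only [siftOK, Bool.and_eq_true, List.contains_iff_mem]
    refine ⟨h3.1, ?_⟩
    apply sift_ok rest L.J h2 _ h3.2
    intro L' hL'
    rw [map_mul, Equiv.Perm.mul_apply, hf L' (by simp [hL']), ← wp_reverse' s hinv,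
      rho_wp s act ρ hρ]

end group

section coxeter

variable {n : ℕ} (M : CoxeterMatrix (Fin n))
variable (N : ℕ) (tab : List ℕ) (hT : tabOK M N tab = true)
variable (L0 : Level) (rest : List Level)
variable (hC : chainOK (actT n N tab) (mN M) (L0 :: rest) (List.range n) = true)

/-- the computational check used for the centre -/
def centerChk (act : ℕ → ℕ → ℕ) (L0 : Level) (rest : List Level) (b' : ℕ) : Bool :=
  L0.O.all (fun x => !(L0.J.all fun j => act j x == x) || x == L0.b || x == b') &&
    rest.all (fun L => L0.O.contains L.b)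

include hC in
theorem center_cases (b' : ℕ) (hchk : centerChk (actT n N tab) L0 rest b' = true)
    (z : M.Group) (hz : z ∈ Subgroup.center M.Group) :
    z = 1 ∨ ∀ L ∈ L0 :: rest,
      rhoT M N tab hT z L.b = evalW (actT n N tab) (L0.word L.b) b' := by
  have hC' := hC
  simp only [chainOK, Bool.and_eq_true, beq_iff_eq] at hC'
  obtain ⟨⟨hI, h1⟩, -⟩ := hC'
  have hzI : z ∈ gsub (sN M) L0.I := by rw [hI, gsub_range]; trivial
  have hcov := level_cover' (sN M) (actT n N tab) (mN M) L0 (sN_inv M) (sN_rel M) (rhoT M N tab hT)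
    (rhoT_sN M N tab hT) h1 z hzI
  obtain ⟨hb, hwb, hJ, hE, htree, hW, hnd⟩ := levelSpec_of_levelOK h1
  simp only [centerChk, Bool.and_eq_true, List.all_eq_true, Bool.or_eq_true, Bool.not_eq_true',
    beq_iff_eq, List.contains_iff_mem] at hchk
  obtain ⟨hk1, hk2⟩ := hchk
  have hcomm : ∀ (g : M.Group) (x : ℕ),
      rhoT M N tab hT z (rhoT M N tab hT g x) = rhoT M N tab hT g (rhoT M N tab hT z x) := by
    intro g x
    rw [← Equiv.Perm.mul_apply, ← Equiv.Perm.mul_apply, ← map_mul, ← map_mul,
      Subgroup.mem_center_iff.1 hz g]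
  have hfix : ∀ j ∈ L0.J, actT n N tab j (rhoT M N tab hT z L0.b) = rhoT M N tab hT z L0.b := by
    intro j hj
    rw [← rhoT_sN M N tab hT, ← hcomm, rhoT_sN, (hJ j hj).2]
  have himg : ∀ y ∈ L0.O, rhoT M N tab hT z y =
      evalW (actT n N tab) (L0.word y) (rhoT M N tab hT z L0.b) := by
    intro y hy
    conv_lhs => rw [← (hW y hy).1, ← rhoT_wp M N tab hT, hcomm, rhoT_wp]
  have hbO : ∀ L ∈ L0 :: rest, L.b ∈ L0.O := by
    intro L hL
    rcases List.mem_cons.1 hL with rfl | hL
    · exact hb
    · exact hk2 L hL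
  rcases hk1 _ hcov.1 with (h | h) | h
  · exfalso
    have : (L0.J.all fun j => actT n N tab j (rhoT M N tab hT z L0.b) == rhoT M N tab hT z L0.b)
        = true := by
      simp only [List.all_eq_true, beq_iff_eq]
      exact hfix
    rw [this] at h
    exact absurd h (by simp)
  · left
    apply coxeter_eq_of_base M N tab hT _ hC
    intro L hL
    rw [himg _ (hbO L hL), h, (hW _ (hbO L hL)).1, map_one]
    rfl
  · right
    intro L hL
    rw [himg _ (hbO L hL), h]

include hT hC in
/-- trivial centre, by computation -/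
theorem center_eq_bot (b' : ℕ) (hchk : centerChk (actT n N tab) L0 rest b' = true)
    (hs : siftOK (actT n N tab) (L0 :: rest) (fun y => evalW (actT n N tab) (L0.word y) b') = false) :
    Subgroup.center M.Group = ⊥ := by
  rw [eq_bot_iff]
  intro z hz
  rcases center_cases M N tab hT L0 rest hC b' hchk z hz with h | h
  · exact Subgroup.mem_bot.2 h
  · exfalso
    have := sift_ok (sN M) (actT n N tab) (mN M) (sN_inv M) (sN_rel M) (rhoT M N tab hT)
      (rhoT_sN M N tab hT) _ _ hC z (by rw [gsub_range]; trivial)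
      (fun y => evalW (actT n N tab) (L0.word y) b') h
    rw [this] at hs
    exact absurd hs (by simp)

theorem mem_center_of_comm (u : M.Group) (h : ∀ i : Fin n, M.simple i * u = u * M.simple i) :
    u ∈ Subgroup.center M.Group := by
  rw [Subgroup.mem_center_iff]
  intro g
  induction g using M.toCoxeterSystem.simple_induction_left with
  | one => simp
  | mul_simple_left w i ih =>
    have h' : M.toCoxeterSystem.simple i = M.simple i := rfl
    rw [h', mul_assoc, ih, ← mul_assoc, h i, mul_assoc]

include hT hC in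
/-- centre of order two generated by a power of the product of a word, by computation -/
theorem center_eq_zpowers (b' : ℕ) (hchk : centerChk (actT n N tab) L0 rest b' = true)
    (w : List ℕ) (k : ℕ)
    (h1 : ((L0 :: rest).all fun L =>
      (evalW (actT n N tab) w)^[k] L.b == evalW (actT n N tab) (L0.word L.b) b') = true)
    (h2 : ((List.range n).all fun i => (L0 :: rest).all fun L =>
      actT n N tab i ((evalW (actT n N tab) w)^[k] L.b) ==
        (evalW (actT n N tab) w)^[k] (actT n N tab i L.b)) = true)
    (h3 : ((L0 :: rest).all fun L => (evalW (actT n N tab) w)^[k + k] L.b == L.b) = true)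
    (h4 : b' ≠ L0.b) :
    Subgroup.center M.Group = Subgroup.zpowers (wp (sN M) w ^ k) ∧ orderOf (wp (sN M) w ^ k) = 2 := by
  simp only [List.all_eq_true, beq_iff_eq, List.mem_range] at h1 h2 h3
  have hC' := hC
  simp only [chainOK, Bool.and_eq_true, beq_iff_eq] at hC'
  obtain ⟨⟨hI, hl⟩, -⟩ := hC'
  obtain ⟨hb, hwb, hJ, hE, htree, hW, hnd⟩ := levelSpec_of_levelOK hl
  constructor
  · apply le_antisymm
    · intro z hz
      rcases center_cases M N tab hT L0 rest hC b' hchk z hz with h | h
      · rw [h]; exact Subgroup.one_mem _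
      · have : z = wp (sN M) w ^ k := by
          apply coxeter_eq_of_base M N tab hT _ hC
          intro L hL
          rw [h L hL, rhoT_wp_pow, h1 L hL]
        rw [this]
        exact Subgroup.mem_zpowers _
    · rw [Subgroup.zpowers_le]
      apply mem_center_of_comm
      intro i
      apply coxeter_eq_of_base M N tab hT _ hC
      intro L hL
      rw [map_mul, map_mul, Equiv.Perm.mul_apply, Equiv.Perm.mul_apply, rhoT_wp_pow, rhoT_wp_pow,
        ← sN_val, rhoT_sN, rhoT_sN]
      exact h2 i.val i.isLt L hL
  · apply orderOf_eq_prime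
    · rw [← pow_mul, mul_two]
      apply coxeter_eq_of_base M N tab hT _ hC
      intro L hL
      rw [rhoT_wp_pow, h3 L hL, map_one]
      rfl
    · intro he
      apply h4
      have := h1 L0 (by simp)
      rw [← rhoT_wp_pow M N tab hT, he, hwb, map_one] at this
      exact this.symm

end coxeter

end Cfsg.Agent.Lib.Helper40
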