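import Mathlib

/-!
# Verified coset enumeration along a stabiliser chain

General (computational) criterion: a group `G` generated by involutions `s i` subject to
`(s i * s j) ^ m i j = 1`, with a permutation representation on `ℕ` given by a table `act`.
A certificate (`Level`) proves that the stabiliser of a base point inside the subgroup generated by
`s i, i ∈ I` is generated by `s j, j ∈ J`.
-/

set_option autoImplicit false

namespace Cfsg.Agent.Lib.Helper40

/-- lookup of the `k`-th entry in a table packed into a natural number, `w` bits per entry -/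
def look (w T k : ℕ) : ℕ := (T >>> (w * k)) % 2 ^ w

/-- computational data of one level of a stabiliser chain; the tables are packed into natural
numbers (see `look`) -/
structure Level where
  /-- active generators -/
  I : List ℕ
  /-- generators of the point stabiliser -/
  J : List ℕ
  /-- base point -/
  b : ℕ
  /-- orbit of the base point -/
  O : List ℕ
  /-- generator labelling the tree edge to the parent (4 bits per point) -/
  gen : ℕ
  /-- parent in the spanning tree (8 bits per point) -/
  par : ℕ
  /-- depth in the spanning tree (8 bits per point) -/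
  dep : ℕ
  /-- rank of an edge in the deduction order (16 bits per edge `8 * x + i`) -/
  rank : ℕ
  /-- the second generator of the relator used for the deduction (4 bits per edge) -/
  partner : ℕ

namespace Level

/-- generator of the tree edge -/
def gn (L : Level) (x : ℕ) : ℕ := look 4 L.gen x
/-- parent -/
def pr (L : Level) (x : ℕ) : ℕ := look 8 L.par x
/-- depth -/
def dp (L : Level) (x : ℕ) : ℕ := look 8 L.dep x
/-- rank of an edge -/
def rk (L : Level) (x i : ℕ) : ℕ := look 16 L.rank (8 * x + i)
/-- partner generator of an edge -/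
def pt (L : Level) (x i : ℕ) : ℕ := look 4 L.partner (8 * x + i)

/-- transversal word, with fuel -/
def wordF (L : Level) : ℕ → ℕ → List ℕ
  | 0, _ => []
  | f + 1, x => L.gn x :: wordF L f (L.pr x)

/-- transversal word of a point -/
def word (L : Level) (x : ℕ) : List ℕ := L.wordF (L.dp x) x

end Level

/-- action of a word on a point -/
def evalW (act : ℕ → ℕ → ℕ) : List ℕ → ℕ → ℕ
  | [], y => y
  | i :: w, y => act i (evalW act w y)

/-- walk along an alternating word, all edges of rank `< r`, ending in `tgt` -/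
def walkOK (act : ℕ → ℕ → ℕ) (L : Level) (r : ℕ) : ℕ → ℕ → ℕ → ℕ → ℕ → Bool
  | 0, _, _, y, tgt => y == tgt
  | k + 1, g, g', y, tgt => decide (L.rk y g < r) && walkOK act L r k g' g (act g y) tgt

/-- the check for one edge of the coset graph -/
def edgeOK (act : ℕ → ℕ → ℕ) (m : ℕ → ℕ → ℕ) (L : Level) (x j : ℕ) : Bool :=
  (act j x != L.b && L.gn (act j x) == j && L.pr (act j x) == x) ||
  (x != L.b && L.gn x == j && L.pr x == act j x) ||
  (x == L.b && L.J.contains j) ||
  (L.I.contains (L.pt x j) && decide (0 < m (L.pt x j) j) &&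
     walkOK act L (L.rk x j) (2 * m (L.pt x j) j - 1) (L.pt x j) j (act j x) x)

/-- the check for one level -/
def levelOK (act : ℕ → ℕ → ℕ) (m : ℕ → ℕ → ℕ) (L : Level) : Bool :=
  L.O.contains L.b && (L.dp L.b == 0) &&
  L.J.all (fun j => L.I.contains j && act j L.b == L.b) &&
  L.O.all (fun x => L.I.all (fun i => L.O.contains (act i x) && edgeOK act m L x i)) &&
  L.O.all (fun x => x == L.b || (L.dp x == L.dp (L.pr x) + 1 && L.O.contains (L.pr x) &&
    act (L.gn x) (L.pr x) == x && L.I.contains (L.gn x))) &&
  decide L.O.Nodup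

/-- what `levelOK` means -/
structure LevelSpec (act : ℕ → ℕ → ℕ) (m : ℕ → ℕ → ℕ) (L : Level) : Prop where
  hb : L.b ∈ L.O
  hwb : L.word L.b = []
  hJ : ∀ j ∈ L.J, j ∈ L.I ∧ act j L.b = L.b
  hE : ∀ x ∈ L.O, ∀ i ∈ L.I, act i x ∈ L.O ∧ edgeOK act m L x i = true
  htree : ∀ x ∈ L.O, x ≠ L.b → L.word x = L.gn x :: L.word (L.pr x)
  hW : ∀ x ∈ L.O, evalW act (L.word x) L.b = x ∧ ∀ i ∈ L.word x, i ∈ L.I
  hnd : L.O.Nodup

theorem levelSpec_of_levelOK {act : ℕ → ℕ → ℕ} {m : ℕ → ℕ → ℕ} {L : Level}
    (hL : levelOK act m L = true) : LevelSpec act m L := by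
  simp only [levelOK, Bool.and_eq_true, Bool.or_eq_true, List.all_eq_true, List.contains_iff_mem,
    beq_iff_eq, decide_eq_true_eq] at hL
  obtain ⟨⟨⟨⟨⟨hb, hdb⟩, hJ⟩, hE⟩, hT⟩, hnd⟩ := hL
  have hwb : L.word L.b = [] := by
    unfold Level.word
    rw [hdb]
    rfl
  have htree : ∀ x ∈ L.O, x ≠ L.b → L.word x = L.gn x :: L.word (L.pr x) := by
    intro x hx hxb
    rcases hT x hx with h | h
    · exact absurd h hxb
    · unfold Level.word
      rw [h.1.1.1]
      rfl
  have hW : ∀ (d x : ℕ), x ∈ L.O → L.dp x = d →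
      evalW act (L.word x) L.b = x ∧ ∀ i ∈ L.word x, i ∈ L.I := by
    intro d
    induction d with
    | zero =>
      intro x hx hd
      rcases hT x hx with h | h
      · subst h
        rw [hwb]
        simp [evalW]
      · omega
    | succ d ih =>
      intro x hx hd
      rcases hT x hx with h | h
      · subst h
        omega
      · have hxb : x ≠ L.b := by
          rintro rfl
          omega
        rw [htree x hx hxb]
        have h1 := ih (L.pr x) h.1.1.2 (by omega)
        refine ⟨?_, ?_⟩
        · rw [evalW, h1.1, h.1.2]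
        · intro i hi
          rcases List.mem_cons.1 hi with rfl | hi
          · exact h.2
          · exact h1.2 i hi
  exact ⟨hb, hwb, hJ, hE, htree, fun x hx => hW _ x hx rfl, hnd⟩

/-- the check for a chain of levels -/
def chainOK (act : ℕ → ℕ → ℕ) (m : ℕ → ℕ → ℕ) : List Level → List ℕ → Bool
  | [], I => I.isEmpty
  | L :: rest, I => (L.I == I) && levelOK act m L && chainOK act m rest L.J

section group

variable {G : Type*} [Group G] (s : ℕ → G)

/-- product of a word -/
def wp (w : List ℕ) : G := (w.map s).prod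

@[simp] theorem wp_nil : wp s [] = 1 := rfl
@[simp] theorem wp_cons (i : ℕ) (w : List ℕ) : wp s (i :: w) = s i * wp s w := by simp [wp]
theorem wp_append (w w' : List ℕ) : wp s (w ++ w') = wp s w * wp s w' := by simp [wp]

/-- subgroup generated by a list of generators -/
def gsub (I : List ℕ) : Subgroup G := Subgroup.closure (s '' {i | i ∈ I})

theorem s_mem_gsub {I : List ℕ} {i : ℕ} (h : i ∈ I) : s i ∈ gsub s I :=
  Subgroup.subset_closure ⟨i, h, rfl⟩

theorem wp_mem_gsub {I : List ℕ} {w : List ℕ} (h : ∀ i ∈ w, i ∈ I) : wp s w ∈ gsub s I := by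
  induction w with
  | nil => simp
  | cons i w ih =>
    rw [wp_cons]
    exact Subgroup.mul_mem _ (s_mem_gsub s (h i (by simp))) (ih fun j hj => h j (by simp [hj]))

theorem gsub_mono {I J : List ℕ} (h : ∀ j ∈ J, j ∈ I) : gsub s J ≤ gsub s I := by
  apply Subgroup.closure_mono
  rintro _ ⟨j, hj, rfl⟩
  exact ⟨j, h j hj, rfl⟩

theorem gsub_nil : gsub s [] = ⊥ := by
  simp [gsub]

/-- alternating product with `k` factors, the rightmost one being `s g` -/
def altp : ℕ → ℕ → ℕ → G
  | 0, _, _ => 1
  | k + 1, g, g' => altp k g' g * s g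

theorem altp_even (k g g' : ℕ) : altp s (2 * k) g g' = (s g' * s g) ^ k := by
  induction k with
  | zero => simp [altp]
  | succ k ih =>
    have : 2 * (k + 1) = (2 * k + 1) + 1 := by ring
    rw [this, altp, altp, ih, pow_succ, mul_assoc]

variable (act : ℕ → ℕ → ℕ) (m : ℕ → ℕ → ℕ) (L : Level)

/-- the Schreier element of an edge -/
def he (x j : ℕ) : G := (wp s (L.word (act j x)))⁻¹ * s j * wp s (L.word x)

theorem walk_mem (H : Subgroup G) (r : ℕ)
    (hcl : ∀ x ∈ L.O, ∀ i ∈ L.I, act i x ∈ L.O)
    (IH : ∀ y ∈ L.O, ∀ g ∈ L.I, L.rk y g < r → he s act L y g ∈ H) (tgt : ℕ) :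
    ∀ (k g g' y : ℕ), g ∈ L.I → g' ∈ L.I → y ∈ L.O → walkOK act L r k g g' y tgt = true →
      (wp s (L.word tgt))⁻¹ * altp s k g g' * wp s (L.word y) ∈ H := by
  intro k
  induction k with
  | zero =>
    intro g g' y _ _ _ h
    simp only [walkOK, beq_iff_eq] at h
    subst h
    simp [altp]
  | succ k ih =>
    intro g g' y hg hg' hy h
    simp only [walkOK, Bool.and_eq_true, decide_eq_true_eq] at h
    have h1 := ih g' g (act g y) hg' hg (hcl y hy g hg) h.2
    have h2 := IH y hy g hg h.1
    have h3 := H.mul_mem h1 h2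
    have e : (wp s (L.word tgt))⁻¹ * altp s k g' g * wp s (L.word (act g y)) * he s act L y g =
        (wp s (L.word tgt))⁻¹ * altp s (k + 1) g g' * wp s (L.word y) := by
      simp only [he, altp]
      group
    rw [e] at h3
    exact h3

variable (hinv : ∀ i, s i * s i = 1) (hrel : ∀ i j, (s i * s j) ^ m i j = 1)

include hinv hrel in
theorem he_mem (hL : levelOK act m L = true) :
    ∀ (r x : ℕ), x ∈ L.O → ∀ j ∈ L.I, L.rk x j = r → he s act L x j ∈ gsub s L.J := by
  obtain ⟨hb, hwb, hJ, hE, htree, hW, hnd⟩ := levelSpec_of_levelOK hL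
  have hcl : ∀ x ∈ L.O, ∀ i ∈ L.I, act i x ∈ L.O := fun x hx i hi => (hE x hx i hi).1
  intro r
  induction r using Nat.strong_induction_on with
  | _ r IH =>
    intro x hx j hj hr
    have h := (hE x hx j hj).2
    simp only [edgeOK, Bool.or_eq_true, Bool.and_eq_true, beq_iff_eq, List.contains_iff_mem,
      decide_eq_true_eq, bne_iff_ne] at h
    rcases h with ((h | h) | h) | h
    · have h' : L.word (act j x) = j :: L.word x := by
        rw [htree _ (hcl x hx j hj) h.1.1, h.1.2, h.2]
      have : he s act L x j = 1 := by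
        simp only [he, h', wp_cons]
        group
      rw [this]; exact Subgroup.one_mem _
    · have h' : L.word x = j :: L.word (act j x) := by
        rw [htree _ hx h.1.1, h.1.2, h.2]
      have : he s act L x j = 1 := by
        unfold he
        rw [h', wp_cons, mul_assoc, ← mul_assoc (s j), hinv, one_mul, inv_mul_cancel]
      rw [this]; exact Subgroup.one_mem _
    · obtain ⟨rfl, hjJ⟩ := h
      have : he s act L L.b j = s j := by
        simp only [he, (hJ j hjJ).2, hwb, wp_nil]
        group
      rw [this]; exact s_mem_gsub s hjJ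
    · obtain ⟨⟨hi, hm⟩, hw⟩ := h
      have IH' : ∀ y ∈ L.O, ∀ g ∈ L.I, L.rk y g < L.rk x j → he s act L y g ∈ gsub s L.J := by
        intro y hy g hg hlt
        exact IH (L.rk y g) (hr ▸ hlt) y hy g hg rfl
      have h1 := walk_mem s act L (gsub s L.J) (L.rk x j) hcl IH' x _ _ _ _ hi hj (hcl x hx j hj) hw
      have e : (wp s (L.word x))⁻¹ * altp s (2 * m (L.pt x j) j - 1) (L.pt x j) j *
          wp s (L.word (act j x)) * he s act L x j = 1 := by
        have e1 : altp s (2 * m (L.pt x j) j - 1) (L.pt x j) j * s j = 1 := by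
          have : 2 * m (L.pt x j) j = (2 * m (L.pt x j) j - 1) + 1 := by omega
          have h2 := altp_even s (m (L.pt x j) j) j (L.pt x j)
          rw [this, altp, hrel] at h2
          exact h2
        have e0 : (wp s (L.word x))⁻¹ * altp s (2 * m (L.pt x j) j - 1) (L.pt x j) j *
            wp s (L.word (act j x)) * he s act L x j
            = (wp s (L.word x))⁻¹ * (altp s (2 * m (L.pt x j) j - 1) (L.pt x j) j * s j) *
              wp s (L.word x) := by
          simp only [he]
          group
        rw [e0, e1]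
        group
      have e2 : he s act L x j = ((wp s (L.word x))⁻¹ * altp s (2 * m (L.pt x j) j - 1) (L.pt x j) j *
          wp s (L.word (act j x)))⁻¹ := (inv_eq_of_mul_eq_one_right e).symm
      rw [e2]
      exact Subgroup.inv_mem _ h1

include hinv hrel in
/-- every element of `⟨s i, i ∈ I⟩` lies in a coset `t_x ⟨s j, j ∈ J⟩`. -/
theorem level_cover (hL : levelOK act m L = true) (g : G) (hg : g ∈ gsub s L.I) :
    ∃ x ∈ L.O, (wp s (L.word x))⁻¹ * g ∈ gsub s L.J := by
  have hE := he_mem s act m L hinv hrel hL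
  obtain ⟨hb, hwb, hJ, hE', htree, hW, hnd⟩ := levelSpec_of_levelOK hL
  have step : ∀ i ∈ L.I, ∀ y : G, (∃ x ∈ L.O, (wp s (L.word x))⁻¹ * y ∈ gsub s L.J) →
      ∃ x ∈ L.O, (wp s (L.word x))⁻¹ * (s i * y) ∈ gsub s L.J := by
    rintro i hi y ⟨x, hx, hy⟩
    refine ⟨act i x, (hE' x hx i hi).1, ?_⟩
    have h1 := Subgroup.mul_mem _ (hE _ x hx i hi rfl) hy
    have e : he s act L x i * ((wp s (L.word x))⁻¹ * y) =
        (wp s (L.word (act i x)))⁻¹ * (s i * y) := by
      simp only [he]
      group
    rw [e] at h1
    exact h1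
  unfold gsub at hg
  induction hg using Subgroup.closure_induction_left with
  | one => exact ⟨L.b, hb, by simp [hwb]⟩
  | mul_left x hx y _ ih =>
    obtain ⟨i, hi, rfl⟩ := hx
    exact step i hi y ih
  | inv_mul_cancel x hx y _ ih =>
    obtain ⟨i, hi, rfl⟩ := hx
    have : (s i)⁻¹ = s i := inv_eq_of_mul_eq_one_right (hinv i)
    rw [this]
    exact step i hi y ih

variable (ρ : G →* Equiv.Perm ℕ) (hρ : ∀ i x, ρ (s i) x = act i x)

include hρ in
theorem rho_wp (w : List ℕ) (y : ℕ) : ρ (wp s w) y = evalW act w y := by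
  induction w with
  | nil => simp [evalW]
  | cons i w ih => simp [evalW, hρ, ih]

include hρ in
theorem gsub_fix {J : List ℕ} {b : ℕ} (hJ : ∀ j ∈ J, act j b = b) (g : G) (hg : g ∈ gsub s J) :
    ρ g b = b := by
  unfold gsub at hg
  induction hg using Subgroup.closure_induction with
  | mem x hx =>
    obtain ⟨j, hj, rfl⟩ := hx
    rw [hρ, hJ j hj]
  | one => simp
  | mul x y _ _ hx hy => simp [hx, hy]
  | inv x _ hx =>
    rw [map_inv, Equiv.Perm.inv_eq_iff_eq]
    exact hx.symm

include hinv hrel hρ in
/-- refined form of `level_cover` -/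
theorem level_cover' (hL : levelOK act m L = true) (g : G) (hg : g ∈ gsub s L.I) :
    ρ g L.b ∈ L.O ∧ (wp s (L.word (ρ g L.b)))⁻¹ * g ∈ gsub s L.J := by
  obtain ⟨x, hx, hy⟩ := level_cover s act m L hinv hrel hL g hg
  obtain ⟨hb, hwb, hJ, hE', htree, hW, hnd⟩ := levelSpec_of_levelOK hL
  have h1 := gsub_fix s act ρ hρ (fun j hj => (hJ j hj).2) _ hy
  rw [map_mul, map_inv, Equiv.Perm.mul_apply, Equiv.Perm.inv_eq_iff_eq, rho_wp s act ρ hρ,
    (hW x hx).1] at h1
  rw [h1]
  exact ⟨hx, hy⟩

include hinv hrel hρ in
theorem level_stab (hL : levelOK act m L = true) (g : G) (hg : g ∈ gsub s L.I)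
    (hfix : ρ g L.b = L.b) : g ∈ gsub s L.J := by
  have h := (level_cover' s act m L hinv hrel ρ hρ hL g hg).2
  obtain ⟨hb, hwb, hJ, hE', htree, hW, hnd⟩ := levelSpec_of_levelOK hL
  rw [hfix, hwb] at h
  simpa using h

include hinv hrel hρ in
theorem level_card (hL : levelOK act m L = true) :
    Nat.card (gsub s L.I) = L.O.length * Nat.card (gsub s L.J) := by
  have hc := level_cover' s act m L hinv hrel ρ hρ hL
  obtain ⟨hb, hwb, hJ, hE', htree, hW, hnd⟩ := levelSpec_of_levelOK hL
  have hle : gsub s L.J ≤ gsub s L.I := gsub_mono s fun j hj => (hJ j hj).1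
  let e : gsub s L.I ≃ {x // x ∈ L.O} × gsub s L.J :=
    { toFun := fun g => (⟨ρ g.1 L.b, (hc g.1 g.2).1⟩, ⟨_, (hc g.1 g.2).2⟩)
      invFun := fun p => ⟨wp s (L.word p.1.1) * p.2.1,
        Subgroup.mul_mem _ (wp_mem_gsub s (hW p.1.1 p.1.2).2) (hle p.2.2)⟩
      left_inv := by
        intro g
        apply Subtype.ext
        simp
      right_inv := by
        rintro ⟨⟨x, hx⟩, ⟨h, hh⟩⟩
        have h1 : ρ (wp s (L.word x) * h) L.b = x := by
          rw [map_mul, Equiv.Perm.mul_apply, gsub_fix s act ρ hρ (fun j hj => (hJ j hj).2) h hh,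
            rho_wp s act ρ hρ, (hW x hx).1]
        simp only [Prod.mk.injEq, Subtype.mk.injEq]
        refine ⟨h1, ?_⟩
        rw [h1]
        group }
  rw [Nat.card_congr e, Nat.card_prod]
  congr 1
  have h2 : Nat.card {x // x ∈ L.O} = Nat.card {x // x ∈ L.O.toFinset} :=
    Nat.card_congr (Equiv.subtypeEquivRight (by simp))
  rw [h2, Nat.card_eq_fintype_card, Fintype.card_coe, List.toFinset_card_of_nodup hnd]

include hinv hrel hρ in
/-- an element fixing all base points of a verified chain is trivial -/
theorem chain_eq_one : ∀ (Ls : List Level) (I : List ℕ), chainOK act m Ls I = true →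
    ∀ g ∈ gsub s I, (∀ L ∈ Ls, ρ g L.b = L.b) → g = 1
  | [], I, h, g, hg, _ => by
    simp only [chainOK, List.isEmpty_iff] at h
    subst h
    rw [gsub_nil] at hg
    exact Subgroup.mem_bot.1 hg
  | L :: rest, I, h, g, hg, hfix => by
    simp only [chainOK, Bool.and_eq_true, beq_iff_eq] at h
    obtain ⟨⟨rfl, h1⟩, h2⟩ := h
    have h3 := level_stab s act m L hinv hrel ρ hρ h1 g hg (hfix L (by simp))
    exact chain_eq_one rest L.J h2 g h3 (fun L' hL' => hfix L' (by simp [hL']))

include hinv hrel hρ in
/-- the order of the group generated along a verified chain -/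
theorem chain_card : ∀ (Ls : List Level) (I : List ℕ), chainOK act m Ls I = true →
    Nat.card (gsub s I) = (Ls.map fun L => L.O.length).prod
  | [], I, h => by
    simp only [chainOK, List.isEmpty_iff] at h
    subst h
    rw [gsub_nil]
    simp
  | L :: rest, I, h => by
    simp only [chainOK, Bool.and_eq_true, beq_iff_eq] at h
    obtain ⟨⟨rfl, h1⟩, h2⟩ := h
    rw [level_card s act m L hinv hrel ρ hρ h1, chain_card rest L.J h2]
    simp

end group

section coxeter

variable {n : ℕ} (M : CoxeterMatrix (Fin n))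

/-- simple reflections indexed by natural numbers -/
def sN (i : ℕ) : M.Group := if h : i < n then M.simple ⟨i, h⟩ else 1

/-- Coxeter matrix entries indexed by natural numbers -/
def mN (i j : ℕ) : ℕ := if h : i < n ∧ j < n then M ⟨i, h.1⟩ ⟨j, h.2⟩ else 0

theorem sN_inv (i : ℕ) : sN M i * sN M i = 1 := by
  unfold sN
  split_ifs with h
  · exact M.toCoxeterSystem.simple_mul_simple_self ⟨i, h⟩
  · simp

theorem sN_rel (i j : ℕ) : (sN M i * sN M j) ^ mN M i j = 1 := by
  unfold mN
  split_ifs with h
  · unfold sN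
    rw [dif_pos h.1, dif_pos h.2]
    exact M.toCoxeterSystem.simple_mul_simple_pow ⟨i, h.1⟩ ⟨j, h.2⟩
  · simp

theorem gsub_range : gsub (sN M) (List.range n) = ⊤ := by
  rw [eq_top_iff, ← M.toCoxeterSystem.subgroup_closure_range_simple]
  apply Subgroup.closure_mono
  rintro _ ⟨i, rfl⟩
  refine ⟨i.1, by simp, ?_⟩
  simp [sN]

/-- the action given by a table (`n` generators, `N` points) -/
def actT (n N : ℕ) (tab : List ℕ) (i x : ℕ) : ℕ :=
  if i < n ∧ x < N then look 8 (tab.getD i 0) x else x

/-- the table defines an action of the Coxeter group -/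
def tabOK (N : ℕ) (tab : List ℕ) : Bool :=
  (List.finRange n).all fun i => (List.finRange n).all fun j => (List.range N).all fun x =>
    decide (actT n N tab i x < N) &&
      ((fun y => actT n N tab i (actT n N tab j y))^[M i j] x == x)

variable (N : ℕ) (tab : List ℕ)

theorem actT_of_ge (i x : ℕ) (hx : N ≤ x) : actT n N tab i x = x := by
  unfold actT
  rw [if_neg (by omega)]

theorem iter_of_ge (i j : ℕ) (k : ℕ) (x : ℕ) (hx : N ≤ x) :
    (fun y => actT n N tab i (actT n N tab j y))^[k] x = x := by
  induction k with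
  | zero => rfl
  | succ k ih =>
    rw [Function.iterate_succ_apply']
    rw [ih, actT_of_ge N tab j x hx, actT_of_ge N tab i x hx]

variable (hT : tabOK M N tab = true)

include hT in
theorem tab_rel (i j : Fin n) (x : ℕ) :
    (fun y => actT n N tab i (actT n N tab j y))^[M i j] x = x := by
  rcases Nat.lt_or_ge x N with hx | hx
  · simp only [tabOK, List.all_eq_true, List.mem_finRange, List.mem_range, Bool.and_eq_true,
      decide_eq_true_eq, beq_iff_eq, true_imp_iff] at hT
    exact (hT i j x hx).2
  · exact iter_of_ge N tab i j _ x hx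

include hT in
theorem tab_invol (i : Fin n) (x : ℕ) : actT n N tab i (actT n N tab i x) = x := by
  have := tab_rel M N tab hT i i x
  rw [M.diagonal] at this
  exact this

/-- the permutation of `ℕ` given by the `i`-th row of the table -/
def permT (i : Fin n) : Equiv.Perm ℕ where
  toFun := actT n N tab i
  invFun := actT n N tab i
  left_inv := tab_invol M N tab hT i
  right_inv := tab_invol M N tab hT i

theorem permT_liftable : M.IsLiftable (permT M N tab hT) := by
  intro i j
  ext x
  rw [← Equiv.Perm.iterate_eq_pow]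
  exact tab_rel M N tab hT i j x

/-- the permutation representation of the Coxeter group given by the table -/
noncomputable def rhoT : M.Group →* Equiv.Perm ℕ :=
  M.toCoxeterSystem.lift ⟨permT M N tab hT, permT_liftable M N tab hT⟩

theorem rhoT_sN (i x : ℕ) : rhoT M N tab hT (sN M i) x = actT n N tab i x := by
  unfold sN
  split_ifs with h
  · have : rhoT M N tab hT (M.simple ⟨i, h⟩) = permT M N tab hT ⟨i, h⟩ :=
      M.toCoxeterSystem.lift_apply_simple (permT_liftable M N tab hT) ⟨i, h⟩
    rw [this]
    rfl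
  · rw [map_one]
    unfold actT
    rw [if_neg (by omega)]
    rfl

variable (Ls : List Level) (hC : chainOK (actT n N tab) (mN M) Ls (List.range n) = true)

include hT hC in
/-- order of the Coxeter group from a verified chain -/
theorem coxeter_card : Nat.card M.Group = (Ls.map fun L => L.O.length).prod := by
  have := chain_card (sN M) (actT n N tab) (mN M) (sN_inv M) (sN_rel M) (rhoT M N tab hT)
    (rhoT_sN M N tab hT) Ls _ hC
  rw [gsub_range] at this
  rw [← this]
  exact (Nat.card_congr Subgroup.topEquiv.toEquiv).symm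

include hT hC in
/-- an element of the Coxeter group is determined by its action on the base points -/
theorem coxeter_eq_of_base (g g' : M.Group)
    (h : ∀ L ∈ Ls, rhoT M N tab hT g L.b = rhoT M N tab hT g' L.b) : g = g' := by
  have h1 : g'⁻¹ * g = 1 := by
    apply chain_eq_one (sN M) (actT n N tab) (mN M) (sN_inv M) (sN_rel M) (rhoT M N tab hT)
      (rhoT_sN M N tab hT) Ls _ hC
    · rw [gsub_range]; trivial
    · intro L hL
      rw [map_mul, map_inv, Equiv.Perm.mul_apply, h L hL]
      simp
  exact (inv_mul_eq_one.1 h1).symm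

include hT hC in
/-- word problem: two words with the same action on the base points are equal -/
theorem coxeter_wp_eq (w w' : List ℕ)
    (h : (Ls.all fun L => evalW (actT n N tab) w L.b == evalW (actT n N tab) w' L.b) = true) :
    wp (sN M) w = wp (sN M) w' := by
  apply coxeter_eq_of_base M N tab hT Ls hC
  intro L hL
  rw [rho_wp (sN M) (actT n N tab) _ (rhoT_sN M N tab hT),
    rho_wp (sN M) (actT n N tab) _ (rhoT_sN M N tab hT)]
  simp only [List.all_eq_true, beq_iff_eq] at h
  exact h L hL

include hT in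
/-- separation: two words acting differently on some point are different -/
theorem coxeter_wp_ne (w w' : List ℕ) (x : ℕ)
    (h : evalW (actT n N tab) w x ≠ evalW (actT n N tab) w' x) :
    wp (sN M) w ≠ wp (sN M) w' := by
  intro he
  apply h
  rw [← rho_wp (sN M) (actT n N tab) _ (rhoT_sN M N tab hT),
    ← rho_wp (sN M) (actT n N tab) _ (rhoT_sN M N tab hT), he]

end coxeter

end Cfsg.Agent.Lib.Helper40
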