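import Cfsg.Agent.Lib.Helper40.CoxeterWords

/-!
# Generation of a presented Coxeter group by the Coxeter element and a few simple reflections
-/

set_option autoImplicit false

namespace Cfsg.Agent.Lib.Helper40

/-- expansion of a program: `0 ↦ c`, `1 ↦ c⁻¹`, `k + 2 ↦` the `k`-th chosen simple reflection -/
def expand (n : ℕ) (ts : List ℕ) : List ℕ → List ℕ
  | [] => []
  | 0 :: p => List.range n ++ expand n ts p
  | 1 :: p => (List.range n).reverse ++ expand n ts p
  | (k + 2) :: p => (match ts[k]? with | some t => [t] | none => []) ++ expand n ts p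

section coxeter

variable {n : ℕ} (M : CoxeterMatrix (Fin n))

theorem wp_reverse (w : List ℕ) : wp (sN M) w.reverse = (wp (sN M) w)⁻¹ := by
  induction w with
  | nil => simp
  | cons i w ih =>
    rw [List.reverse_cons, wp_append, ih, wp_cons, wp_cons, wp_nil, mul_one, mul_inv_rev]
    congr 1
    exact (inv_eq_of_mul_eq_one_right (sN_inv M i)).symm

theorem wp_expand_mem (ts : List ℕ) (H : Subgroup M.Group) (hc : wp (sN M) (List.range n) ∈ H)
    (hts : ∀ t ∈ ts, sN M t ∈ H) (p : List ℕ) : wp (sN M) (expand n ts p) ∈ H := by
  induction p with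
  | nil => simp [expand]
  | cons a p ih =>
    match a with
    | 0 =>
      rw [expand, wp_append]
      exact H.mul_mem hc ih
    | 1 =>
      rw [expand, wp_append, wp_reverse]
      exact H.mul_mem (H.inv_mem hc) ih
    | k + 2 =>
      rw [expand, wp_append]
      refine H.mul_mem ?_ ih
      cases hk : ts[k]? with
      | none => simp
      | some t =>
        simp only [wp_cons, wp_nil, mul_one]
        exact hts t (List.mem_of_getElem? hk)

variable (N : ℕ) (tab : List ℕ) (hT : tabOK M N tab = true)
variable (Ls : List Level) (hC : chainOK (actT n N tab) (mN M) Ls (List.range n) = true)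

include hT hC in
/-- generation criterion, by computation -/
theorem coxeter_closure_top (ts : List ℕ) (progs : List (List ℕ))
    (hchk : ((List.range n).all fun j => Ls.all fun L =>
      evalW (actT n N tab) (expand n ts (progs.getD j [])) L.b == evalW (actT n N tab) [j] L.b) = true)
    (S : Set M.Group) (hc : ((List.finRange n).map M.simple).prod ∈ S)
    (hts : ∀ t ∈ ts, sN M t ∈ S) : Subgroup.closure S = ⊤ := by
  rw [eq_top_iff, ← M.toCoxeterSystem.subgroup_closure_range_simple, Subgroup.closure_le]
  rintro _ ⟨i, rfl⟩
  simp only [List.all_eq_true, List.mem_range] at hchk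
  have h1 : wp (sN M) (expand n ts (progs.getD i.val [])) = wp (sN M) [i.val] := by
    apply coxeter_wp_eq M N tab hT Ls hC
    simp only [List.all_eq_true]
    exact hchk i.val i.isLt
  have h2 : wp (sN M) [i.val] = M.simple i := by
    rw [wp_cons, wp_nil, mul_one, sN_val]
  have h3 : M.toCoxeterSystem.simple i = M.simple i := rfl
  rw [h3, ← h2, ← h1]
  apply wp_expand_mem
  · rw [← coxeterElement_eq]
    exact Subgroup.subset_closure hc
  · intro t ht
    exact Subgroup.subset_closure (hts t ht)

end coxeter

end Cfsg.Agent.Lib.Helper40
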