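import Cfsg.Agent.Lib.Helper40.CoxeterEnum

/-!
# Consequences of a verified stabiliser chain for a presented Coxeter group
-/

set_option autoImplicit false

namespace Cfsg.Agent.Lib.Helper40

section coxeter

variable {n : ℕ} (M : CoxeterMatrix (Fin n))

theorem sN_val (i : Fin n) : sN M i.val = M.simple i := by
  simp [sN]

/-- the Coxeter element as a word product -/
theorem coxeterElement_eq : ((List.finRange n).map M.simple).prod = wp (sN M) (List.range n) := by
  unfold wp
  rw [← List.map_coe_finRange_eq_range, List.map_map]
  congr 1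
  apply List.map_congr_left
  intro i _
  exact (sN_val M i).symm

variable (N : ℕ) (tab : List ℕ) (hT : tabOK M N tab = true)

theorem rhoT_wp (w : List ℕ) (x : ℕ) :
    rhoT M N tab hT (wp (sN M) w) x = evalW (actT n N tab) w x :=
  rho_wp (sN M) (actT n N tab) _ (rhoT_sN M N tab hT) w x

theorem rhoT_wp_pow (w : List ℕ) (k x : ℕ) :
    rhoT M N tab hT (wp (sN M) w ^ k) x = (evalW (actT n N tab) w)^[k] x := by
  rw [map_pow, ← Equiv.Perm.iterate_eq_pow]
  congr 1
  funext y
  exact rhoT_wp M N tab hT w y

variable (Ls : List Level) (hC : chainOK (actT n N tab) (mN M) Ls (List.range n) = true)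

include hT hC in
/-- order of the product of a word, by computation -/
theorem coxeter_orderOf (w : List ℕ) (h x : ℕ) (hpos : 0 < h)
    (h1 : (Ls.all fun L => (evalW (actT n N tab) w)^[h] L.b == L.b) = true)
    (h2 : ((List.range h).all fun k => k == 0 || (evalW (actT n N tab) w)^[k] x != x) = true) :
    orderOf (wp (sN M) w) = h := by
  rw [orderOf_eq_iff hpos]
  constructor
  · apply coxeter_eq_of_base M N tab hT Ls hC
    intro L hL
    rw [rhoT_wp_pow, map_one]
    simp only [List.all_eq_true, beq_iff_eq] at h1
    exact h1 L hL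
  · intro k hk hk0 he
    simp only [List.all_eq_true, List.mem_range, Bool.or_eq_true, beq_iff_eq, bne_iff_ne] at h2
    rcases h2 k hk with h3 | h3
    · omega
    · apply h3
      rw [← rhoT_wp_pow M N tab hT, he, map_one]
      rfl

end coxeter

end Cfsg.Agent.Lib.Helper40
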