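/-
helper40: a homomorphism onto a projective linear group from an equivariant labelling of points by
vectors; double covers.
-/
import Cfsg.Agent.Lib.Helper40.PresTransp

set_option autoImplicit false

namespace Cfsg.Agent.Lib.Helper40.PE

section Equivariant

variable {Γ W : Type*} [Group Γ] [Group W] {F V : Type*} [Field F] [AddCommGroup V] [Module F V]
  (ρ : Γ →* Equiv.Perm ℕ) (mv : W → V → V) (I : Set ℕ) (β : ℕ → V)

/-- `u` acts on the labels as `h` acts on the points (up to scalars) -/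
def Comp (h : Γ) (u : W) : Prop := ∀ q ∈ I, ∃ c : F, c ≠ 0 ∧ mv u (β q) = c • β (ρ h q)

variable {ρ mv I β}

theorem exists_hom_of_equivariant
    (mv_mul : ∀ a b x, mv (a * b) x = mv a (mv b x)) (mv_one : ∀ x, mv 1 x = x)
    (mv_smul : ∀ a (c : F) x, mv a (c • x) = c • mv a x)
    (S : Set (Γ × W)) (L : Subgroup Γ) (hL : L = Subgroup.closure (Prod.fst '' S))
    (hI : ∀ h ∈ L, ∀ q ∈ I, ρ h q ∈ I)
    (hS : ∀ p ∈ S, Comp (F := F) ρ mv I β p.1 p.2)
    (Z1 : ∀ u : W, (∀ q ∈ I, ∃ c : F, c ≠ 0 ∧ mv u (β q) = c • β q) → u ∈ Subgroup.center W)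
    (Z2 : ∀ u ∈ Subgroup.center W, ∀ q ∈ I, ∃ c : F, c ≠ 0 ∧ mv u (β q) = c • β q)
    (inj : ∀ q ∈ I, ∀ q' ∈ I, ∀ c : F, c ≠ 0 → β q = c • β q' → q = q') :
    ∃ Φ : L →* W ⧸ Subgroup.center W, (∀ h, Φ h = 1 ↔ ∀ q ∈ I, ρ h.1 q = q) := by
  set R := Subgroup.closure S with hR
  have c1 : ∀ r ∈ R, r.1 ∈ L ∧ Comp (F := F) ρ mv I β r.1 r.2 := by
    intro r hr
    induction hr using Subgroup.closure_induction with
    | mem p hp => exact ⟨by rw [hL]; exact Subgroup.subset_closure ⟨p, hp, rfl⟩, hS p hp⟩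
    | one =>
      refine ⟨L.one_mem, fun q _ => ⟨1, one_ne_zero, ?_⟩⟩
      simp [mv_one]
    | mul a b _ _ ha hb =>
      refine ⟨L.mul_mem ha.1 hb.1, fun q hq => ?_⟩
      obtain ⟨c', hc', e'⟩ := hb.2 q hq
      obtain ⟨c, hc, e⟩ := ha.2 _ (hI _ hb.1 q hq)
      refine ⟨c' * c, mul_ne_zero hc' hc, ?_⟩
      rw [Prod.snd_mul, Prod.fst_mul, mv_mul, e', mv_smul, e, smul_smul, map_mul,
        Equiv.Perm.mul_apply]
    | inv a _ ha =>
      refine ⟨L.inv_mem ha.1, fun q hq => ?_⟩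
      have hq' := hI _ (L.inv_mem ha.1) q hq
      obtain ⟨c, hc, e⟩ := ha.2 _ hq'
      refine ⟨c⁻¹, inv_ne_zero hc, ?_⟩
      have e2 : ρ a.1 (ρ a.1⁻¹ q) = q := by
        rw [← Equiv.Perm.mul_apply, ← map_mul]; simp
      rw [e2] at e
      have e3 : mv a.2⁻¹ (mv a.2 (β (ρ a.1⁻¹ q))) = β (ρ a.1⁻¹ q) := by
        rw [← mv_mul]; simp [mv_one]
      rw [e, mv_smul] at e3
      rw [Prod.snd_inv, Prod.fst_inv, ← e3, smul_smul, inv_mul_cancel₀ hc, one_smul]
  have c2 : ∀ h ∈ L, ∃ u, (h, u) ∈ R := by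
    intro h hh
    rw [hL] at hh
    induction hh using Subgroup.closure_induction with
    | mem x hx =>
      obtain ⟨p, hp, rfl⟩ := hx
      exact ⟨p.2, Subgroup.subset_closure hp⟩
    | one => exact ⟨1, R.one_mem⟩
    | mul a b _ _ ha hb =>
      obtain ⟨u, hu⟩ := ha
      obtain ⟨v, hv⟩ := hb
      exact ⟨u * v, R.mul_mem hu hv⟩
    | inv a _ ha =>
      obtain ⟨u, hu⟩ := ha
      exact ⟨u⁻¹, R.inv_mem hu⟩
  choose! f hf using c2
  have wd : ∀ h u u', (h, u) ∈ R → (h, u') ∈ R →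
      (u : W ⧸ Subgroup.center W) = (u' : W ⧸ Subgroup.center W) := by
    intro h u u' hu hu'
    rw [QuotientGroup.eq]
    apply Z1
    have h1 : ((h, u)⁻¹ * (h, u') : Γ × W) ∈ R := R.mul_mem (R.inv_mem hu) hu'
    have h2 := (c1 _ h1).2
    intro q hq
    obtain ⟨c, hc, e⟩ := h2 q hq
    refine ⟨c, hc, ?_⟩
    simpa using e
  refine ⟨MonoidHom.mk' (fun h => ((f h.1 : W) : W ⧸ Subgroup.center W)) ?_, ?_⟩
  · intro a b
    rw [← QuotientGroup.mk_mul]
    exact wd (a.1 * b.1) _ _ (hf _ (L.mul_mem a.2 b.2)) (R.mul_mem (hf _ a.2) (hf _ b.2))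
  · intro h
    have hc := (c1 _ (hf h.1 h.2)).2
    rw [MonoidHom.mk'_apply, QuotientGroup.eq_one_iff]
    constructor
    · intro hz q hq
      obtain ⟨c, hc0, e⟩ := Z2 _ hz q hq
      obtain ⟨c', hc0', e'⟩ := hc q hq
      apply inj _ (hI _ h.2 q hq) q hq (c'⁻¹ * c) (mul_ne_zero (inv_ne_zero hc0') hc0)
      rw [mul_smul, ← e, e', smul_smul, inv_mul_cancel₀ hc0', one_smul]
    · intro hfix
      apply Z1
      intro q hq
      obtain ⟨c', hc0', e'⟩ := hc q hq
      exact ⟨c', hc0', by rw [e', hfix q hq]⟩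

end Equivariant

section SubGens

variable {G : Type*} [Group G] (s : ℕ → G) (Sw : List (List ℕ))

/-- the generators of `Hs s Sw` as elements of this subgroup -/
def sH (k : ℕ) : Hs s Sw := ⟨wp s (Sw.getD k []), wp_getD_mem_Hs s Sw k⟩

theorem coe_wp_sH (w : List ℕ) :
    ((wp (sH s Sw) w : Hs s Sw) : G) = wp s (w.flatMap fun k => Sw.getD k []) := by
  induction w with
  | nil => simp
  | cons k w ih =>
    rw [wp_cons, List.flatMap_cons, wp_append, Subgroup.coe_mul, ih]
    rfl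

theorem pre_sH_top : pre (sH s Sw) Sw.length = ⊤ := by
  rw [eq_top_iff]
  rintro ⟨h, hh⟩ -
  unfold Hs at hh
  induction hh using Subgroup.closure_induction with
  | mem x hx =>
    obtain ⟨w, hw, rfl⟩ := hx
    obtain ⟨k, hk, rfl⟩ := List.mem_iff_getElem.mp hw
    apply Subgroup.subset_closure
    refine ⟨k, hk, ?_⟩
    apply Subtype.ext
    show wp s (Sw.getD k []) = _
    rw [List.getD_eq_getElem _ _ hk]
  | one => exact Subgroup.one_mem _
  | mul x y hx hy ihx ihy => exact Subgroup.mul_mem _ ihx ihy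
  | inv x hx ih => exact Subgroup.inv_mem _ ih

end SubGens

section Cover

variable {H T : Type*} [Group H] [Group T]

/-- a perfect group mapping onto a centreless group with a kernel of order two is a non-split double
cover -/
theorem nonsplit_of_surj (Φ : H →* T) (hs : Function.Surjective Φ) (hk : Nat.card Φ.ker = 2)
    (hT : ∀ z : T, (∀ g, g * z = z * g) → z = 1) (hp : commutator H = ⊤) :
    Cfsg.IsNonsplitDoubleCover H T := by
  have hker : Φ.ker = Subgroup.center H := by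
    apply le_antisymm
    · -- a normal subgroup of order two is central
      intro z hz
      rw [Subgroup.mem_center_iff]
      intro g
      by_cases h1 : z = 1
      · simp [h1]
      have h2 : g * z * g⁻¹ ∈ Φ.ker := (inferInstance : Φ.ker.Normal).conj_mem z hz g
      have h3 : g * z * g⁻¹ ≠ 1 := by
        intro h
        apply h1
        calc z = g⁻¹ * (g * z * g⁻¹) * g := by group
          _ = 1 := by rw [h]; simp
      obtain ⟨x, -, hx⟩ := (Nat.card_eq_two_iff' (1 : Φ.ker)).mp hk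
      have key : ∀ a b : Φ.ker, a ≠ 1 → b ≠ 1 → a = b := fun a b ha hb =>
        (hx a ha).trans (hx b hb).symm
      have := key ⟨g * z * g⁻¹, h2⟩ ⟨z, hz⟩ (fun h => h3 (congrArg Subtype.val h))
        (fun h => h1 (congrArg Subtype.val h))
      have h4 : g * z * g⁻¹ = z := congrArg Subtype.val this
      calc g * z = (g * z * g⁻¹) * g := by group
        _ = z * g := by rw [h4]
    · intro z hz
      rw [MonoidHom.mem_ker]
      apply hT
      intro g
      obtain ⟨g', rfl⟩ := hs g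
      rw [← map_mul, ← map_mul, Subgroup.mem_center_iff.mp hz g']
  refine ⟨by rw [← hker]; exact hk, ⟨?_⟩, ?_⟩
  · exact (QuotientGroup.quotientMulEquivOfEq hker.symm).trans
      (QuotientGroup.quotientKerEquivOfSurjective Φ hs)
  · intro L hL
    have hidx : L.index = 2 := by
      rw [← hL.card_left, ← hker]; exact hk
    have hn : L.Normal := Subgroup.normal_of_index_eq_two hidx
    have hcard : Nat.card (H ⧸ L) = 2 := hidx
    have hcomm : commutator H ≤ L := by
      have : Fact (Nat.Prime 2) := ⟨Nat.prime_two⟩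
      have hcyc : IsCyclic (H ⧸ L) := isCyclic_of_prime_card hcard
      rw [← Subgroup.Normal.quotient_commutative_iff_commutator_le]
      obtain ⟨g, hg⟩ := hcyc.exists_generator
      refine ⟨⟨fun a b => ?_⟩⟩
      obtain ⟨m, rfl⟩ := Subgroup.mem_zpowers_iff.mp (hg a)
      obtain ⟨n, rfl⟩ := Subgroup.mem_zpowers_iff.mp (hg b)
      rw [← zpow_add, ← zpow_add, add_comm]
    have htop : L = ⊤ := by
      rw [eq_top_iff, ← hp]; exact hcomm
    have h1 : L.index = 1 := by rw [htop]; exact Subgroup.index_top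
    omega

end Cover

end Cfsg.Agent.Lib.Helper40.PE
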