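/-
helper40: the index of a subgroup from a transitive table.
-/
import Cfsg.Agent.Lib.Helper40.PresRank3

set_option autoImplicit false

namespace Cfsg.Agent.Lib.Helper40.PE

variable {G : Type*} [Group G] {s : ℕ → G} {p : PTab} {B Sw SwG : List (List ℕ)}
  {ρ : G →* Equiv.Perm ℕ}

theorem index_trans (hgood : p.Good B) (hρ : ∀ k < p.A, ρ (s k) = PTab.sig hgood k)
    (hSw : ∀ w ∈ Sw, ∀ k ∈ w, k < p.A) (hSwG : ∀ w ∈ SwG, ∀ k ∈ w, k < p.A)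
    (hub : Finite (G ⧸ Hs s Sw) ∧ Nat.card (G ⧸ Hs s Sw) ≤ p.N) (hN : 1 ≤ p.N)
    (o0 : ∀ x, 0 ≤ x → x < 1 → p.orbOK Sw 0 1 x = true)
    (oG : ∀ x, 0 ≤ x → x < p.N → p.orbOK SwG 0 p.N x = true) :
    (Hs s Sw).index = p.N := by
  obtain ⟨m0, -⟩ := PTab.orb_spec (s := s) hgood hρ hSw hN o0
  obtain ⟨-, t1⟩ := PTab.orb_spec (s := s) hgood hρ hSwG le_rfl oG
  have hfix := fix_of_orb m0
  have htrans : ∀ x < p.N, ∃ g, ρ g 0 = x := by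
    intro x hx
    obtain ⟨g, -, hg⟩ := t1 x (Nat.zero_le _) hx
    exact ⟨g, hg⟩
  exact (index_of_bounds hub hfix htrans).1

end Cfsg.Agent.Lib.Helper40.PE
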